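import Cfsg.Agent.H926.PermTr

/-!
# Hearts of permutation modules from traces (helper933)

`exists_heart` : `ρ : G → GL(ι, F)` absolutely irreducible, `G` acts on `X`, `|X| = |ι| + 2`, `|X| = 0` in `F`,
`tr g = fix g - 2` on `G`: there are vectors `W x y` (`x y : X`), `W x y + W y z = W x z`, not all zero, and an
extension `S` of `ρ` to the symmetric group of `X` permuting them.
-/

set_option autoImplicit false
set_option linter.unusedSectionVars false

namespace Cfsg.Agent.H933.HeartTr

open Cfsg Cfsg.Geo Matrix Module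
open Cfsg.Agent.H915.LD
open Cfsg.Agent.H926.PermTr (dl dl_self dl_ne)

universe u v w

variable {ι : Type} [Fintype ι] [DecidableEq ι] {F : Type u} [Field F]

/-- the images of the points -/
def hb (F : Type*) [Field F] (x : Option (Option ι)) : ι → F :=
  fun y => dl F x (some (some y)) - dl F x (some none)

theorem hb_ss (x : ι) : hb F (some (some x)) = Pi.single x 1 := by
  funext y
  rw [hb, dl_ne (show (some (some x) : Option (Option ι)) ≠ some none by simp), sub_zero]
  by_cases h : x = y
  · subst h
    rw [dl_self, Pi.single_eq_same]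
  · rw [dl_ne (fun h' => h (Option.some.inj (Option.some.inj h'))), Pi.single_eq_of_ne (Ne.symm h)]

theorem hb_sn : hb F (some none : Option (Option ι)) = fun _ => -1 := by
  funext y
  rw [hb, dl_ne (by simp), dl_self, zero_sub]

theorem hb_none : hb F (none : Option (Option ι)) = 0 := by
  funext y
  rw [hb, dl_ne (by simp), dl_ne (by simp), sub_zero, Pi.zero_apply]

theorem sum_hb : ∑ x : Option (Option ι), hb F x = 0 := by
  rw [Fintype.sum_option, Fintype.sum_option, hb_none, hb_sn, zero_add]
  funext y
  have h1 : ∑ x : ι, hb F (some (some x)) y = 1 := by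
    rw [Finset.sum_eq_single y]
    · rw [hb_ss, Pi.single_eq_same]
    · intro x _ hx
      rw [hb_ss, Pi.single_eq_of_ne (Ne.symm hx)]
    · intro h
      exact absurd (Finset.mem_univ _) h
  rw [Pi.add_apply, Finset.sum_apply, h1]
  exact neg_add_cancel 1

/-- the matrix of a permutation -/
def hm (F : Type*) [Field F] (σ : Equiv.Perm (Option (Option ι))) : Matrix ι ι F :=
  Matrix.of fun y x => hb F (σ (some (some x))) y - hb F (σ none) y

variable (h0 : (Fintype.card ι : F) + 2 = 0)

include h0 in
theorem hm_mulVec (σ : Equiv.Perm (Option (Option ι))) (x : Option (Option ι)) :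
    hm F σ *ᵥ hb F x = hb F (σ x) - hb F (σ none) := by
  have hss : ∀ x : ι, hm F σ *ᵥ hb F (some (some x)) = hb F (σ (some (some x))) - hb F (σ none) := by
    intro x
    rw [hb_ss, Matrix.mulVec_single_one]
    rfl
  match x with
  | some (some x) => exact hss x
  | none => rw [hb_none, Matrix.mulVec_zero, sub_self]
  | some none =>
    have h1 : hb F (some none : Option (Option ι)) = -∑ x : ι, hb F (some (some x)) := by
      have h := sum_hb (ι := ι) (F := F)
      rw [Fintype.sum_option, Fintype.sum_option, hb_none, zero_add] at h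
      exact eq_neg_of_add_eq_zero_left h
    have h2 : hb F (σ none) + (hb F (σ (some none)) + ∑ x : ι, hb F (σ (some (some x)))) = 0 := by
      have h := sum_hb (ι := ι) (F := F)
      rw [← Equiv.sum_comp σ, Fintype.sum_option, Fintype.sum_option] at h
      exact h
    have h3 : hm F σ *ᵥ ∑ x : ι, hb F (some (some x)) =
        ∑ x : ι, hb F (σ (some (some x))) - (Fintype.card ι : F) • hb F (σ none) := by
      rw [Matrix.mulVec_sum, Finset.sum_congr rfl fun x _ => hss x, Finset.sum_sub_distrib, Finset.sum_const,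
        Finset.card_univ, Nat.cast_smul_eq_nsmul]
    rw [h1, Matrix.mulVec_neg, h3]
    have h4 : ((Fintype.card ι : F) + 2) • hb F (σ none) = 0 := by rw [h0, zero_smul]
    rw [add_smul, two_smul] at h4
    have h5 : (∑ x : ι, hb F (σ (some (some x)))) = -(hb F (σ none) + hb F (σ (some none))) := by
      rw [eq_neg_iff_add_eq_zero, ← h2]
      abel
    rw [h5]
    have h6 : (Fintype.card ι : F) • hb F (σ none) = -(hb F (σ none) + hb F (σ none)) :=
      eq_neg_of_add_eq_zero_left h4
    rw [h6]
    abel

include h0 in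
theorem hm_mul (σ τ : Equiv.Perm (Option (Option ι))) : hm F (σ * τ) = hm F σ * hm F τ := by
  apply Matrix.ext_of_mulVec_single
  intro x
  rw [← Matrix.mulVec_mulVec]
  have h1 := hm_mulVec h0 τ (some (some x))
  have h2 := hm_mulVec h0 (σ * τ) (some (some x))
  rw [hb_ss] at h1 h2
  rw [h1, h2, Matrix.mulVec_sub, hm_mulVec h0, hm_mulVec h0]
  rw [Equiv.Perm.mul_apply, Equiv.Perm.mul_apply]
  abel

theorem hm_one : hm F (1 : Equiv.Perm (Option (Option ι))) = 1 := by
  apply Matrix.ext_of_mulVec_single
  intro x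
  rw [Matrix.one_mulVec, Matrix.mulVec_single_one]
  funext y
  change hb F (some (some x)) y - hb F none y = _
  rw [hb_none, Pi.zero_apply, sub_zero, hb_ss]

include h0 in
theorem hm_trace (σ : Equiv.Perm (Option (Option ι))) :
    (hm F σ).trace = ((Finset.univ.filter fun x => σ x = x).card : F) - 2 := by
  have h1 : (hm F σ).trace = ∑ x : ι, ((dl F (σ (some (some x))) (some (some x)) - dl F (σ (some (some x))) (some none)) -
      (dl F (σ none) (some (some x)) - dl F (σ none) (some none))) := rfl
  have h2 : ∑ x : Option (Option ι), dl F (σ x) x = ((Finset.univ.filter fun x => σ x = x).card : F) := by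
    rw [Finset.card_filter]
    push_cast
    rfl
  have h3 : ∑ x : Option (Option ι), dl F (σ x) (some none) = 1 := by
    rw [Equiv.sum_comp σ (fun x => dl F x (some none))]
    rw [Finset.sum_eq_single (some none)]
    · exact dl_self _
    · intro x _ hx
      exact dl_ne hx
    · intro h
      exact absurd (Finset.mem_univ _) h
  have h4 : ∑ x : Option (Option ι), dl F (σ none) x = 1 := by
    rw [Finset.sum_eq_single (σ none)]
    · exact dl_self _
    · intro x _ hx
      exact dl_ne (Ne.symm hx)
    · intro h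
      exact absurd (Finset.mem_univ _) h
  rw [Fintype.sum_option, Fintype.sum_option] at h2 h3 h4
  rw [h1, Finset.sum_sub_distrib, Finset.sum_sub_distrib, Finset.sum_sub_distrib, ← h2, Finset.sum_const, Finset.card_univ,
    nsmul_eq_mul]
  linear_combination -h3 - h4 + dl F (σ none) (some none) * h0

/-- the representation on the heart -/
def hmRep (h0 : (Fintype.card ι : F) + 2 = 0) : Equiv.Perm (Option (Option ι)) →* GL ι F where
  toFun σ := ⟨hm F σ, hm F σ⁻¹, by rw [← hm_mul h0, mul_inv_cancel, hm_one],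
    by rw [← hm_mul h0, inv_mul_cancel, hm_one]⟩
  map_one' := Units.ext hm_one
  map_mul' σ τ := Units.ext (hm_mul h0 σ τ)

/-- **The heart of a permutation module from its traces.** -/
theorem exists_heart {G : Type w} [Group G] {ρ : G →* GL ι F}
    (habs : ActsAbsolutelyIrreducibly (matrixSet ρ.range)) [Nonempty ι] {X : Type v} [Fintype X]
    [DecidableEq X] [MulAction G X] (hcard : Fintype.card X = Fintype.card ι + 2) (h0 : (Fintype.card X : F) = 0)
    (htr : ∀ g : G, tr (ρ g) = ((Finset.univ.filter fun x : X => g • x = x).card : F) - 2) :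
    ∃ (S : Equiv.Perm X →* GL ι F) (W : X → X → (ι → F)), (∀ g : G, S (MulAction.toPermHom G X g) = ρ g) ∧
      (∀ (σ : Equiv.Perm X) (x y : X), (S σ : Matrix ι ι F) *ᵥ W x y = W (σ x) (σ y)) ∧
      (∀ x y z, W x y + W y z = W x z) ∧ ∃ x y, W x y ≠ 0 := by
  have h0' : (Fintype.card ι : F) + 2 = 0 := by
    rw [hcard] at h0
    push_cast at h0
    exact h0
  let e : X ≃ Option (Option ι) := Fintype.equivOfCardEq (by rw [hcard, Fintype.card_option, Fintype.card_option])
  let π₀ : Equiv.Perm X →* Equiv.Perm (Option (Option ι)) := (Equiv.permCongrHom e).toMonoidHom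
  have hπ₀ : ∀ (σ : Equiv.Perm X) (x : X), π₀ σ (e x) = e (σ x) := by
    intro σ x
    change e (σ (e.symm (e x))) = _
    rw [e.symm_apply_apply]
  let π : G →* Equiv.Perm (Option (Option ι)) := π₀.comp (MulAction.toPermHom G X)
  have hπ : ∀ (g : G) (x : X), π g (e x) = e (g • x) := fun g x => hπ₀ _ x
  obtain ⟨J, hJ⟩ := H920.exists_conj_of_trace ρ ((hmRep h0').comp π)
    (by
      have h1 : (Set.range fun g : G => ((ρ g : GL ι F) : Matrix ι ι F)) = matrixSet ρ.range := by
        ext M
        constructor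
        · rintro ⟨g, rfl⟩
          exact ⟨ρ g, ⟨g, rfl⟩, rfl⟩
        · rintro ⟨_, ⟨g, rfl⟩, rfl⟩
          exact ⟨g, rfl⟩
      rw [h1]
      exact H920.adjoin_eq_top habs)
    (by
      intro g
      have h1 : (((hmRep h0').comp π g : GL ι F) : Matrix ι ι F) = hm F (π g) := rfl
      rw [h1, hm_trace h0']
      have h2 := htr g
      rw [tr] at h2
      rw [h2]
      congr 2
      apply Finset.card_bij (fun x _ => e x)
      · intro x hx
        rw [Finset.mem_filter] at hx ⊢
        exact ⟨Finset.mem_univ _, by rw [hπ, hx.2]⟩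
      · intro x _ y _ hxy
        exact e.injective hxy
      · intro y hy
        rw [Finset.mem_filter] at hy
        refine ⟨e.symm y, ?_, e.apply_symm_apply y⟩
        rw [Finset.mem_filter]
        refine ⟨Finset.mem_univ _, e.injective ?_⟩
        rw [← hπ, e.apply_symm_apply, hy.2])
  refine ⟨(MulAut.conj J⁻¹).toMonoidHom.comp ((hmRep h0').comp π₀),
    fun x y => ((J⁻¹ : GL ι F) : Matrix ι ι F) *ᵥ (hb F (e x) - hb F (e y)), ?_, ?_, ?_, ?_⟩
  · intro g
    change J⁻¹ * ((hmRep h0').comp π g) * J⁻¹⁻¹ = ρ g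
    rw [hJ g]
    group
  · intro σ x y
    change ((J⁻¹ * (hmRep h0' (π₀ σ)) * J⁻¹⁻¹ : GL ι F) : Matrix ι ι F) *ᵥ _ = _
    rw [Matrix.mulVec_mulVec, ← Units.val_mul, inv_mul_cancel_right, Units.val_mul, ← Matrix.mulVec_mulVec]
    change _ *ᵥ (hm F (π₀ σ) *ᵥ (hb F (e x) - hb F (e y))) = _
    rw [Matrix.mulVec_sub, hm_mulVec h0', hm_mulVec h0', hπ₀, hπ₀]
    congr 1
    abel
  · intro x y z
    rw [← Matrix.mulVec_add]
    congr 1
    abel
  · obtain ⟨i⟩ := ‹Nonempty ι›
    refine ⟨e.symm (some (some i)), e.symm none, fun h => ?_⟩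
    have h1 := congrArg (fun w => (J : Matrix ι ι F) *ᵥ w) h
    simp only [Matrix.mulVec_zero] at h1
    rw [Matrix.mulVec_mulVec, ← Units.val_mul, mul_inv_cancel, Units.val_one, Matrix.one_mulVec, e.apply_symm_apply,
      e.apply_symm_apply, hb_ss, hb_none, sub_zero] at h1
    have := congrFun h1 i
    rw [Pi.single_eq_same] at this
    exact one_ne_zero this

/-- **Schur.** -/
theorem schur {P : Subgroup (GL ι F)} (habs : ActsAbsolutelyIrreducibly (matrixSet P)) {T : Matrix ι ι F}
    (hT : ∀ g ∈ P, T * (g : Matrix ι ι F) = (g : Matrix ι ι F) * T) : ∃ c : F, T = c • (1 : Matrix ι ι F) := by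
  have h1 : Algebra.adjoin F (matrixSet P) ≤ Subalgebra.centralizer F {T} := by
    rw [Algebra.adjoin_le_iff]
    rintro _ ⟨g, hg, rfl⟩
    rw [SetLike.mem_coe, Subalgebra.mem_centralizer_iff]
    rintro _ rfl
    exact hT g hg
  rw [H920.adjoin_eq_top habs] at h1
  have h2 : T ∈ Set.range (Matrix.scalar ι) := by
    apply Matrix.mem_range_scalar_of_commute_single
    intro i j hij
    have h3 := Subalgebra.mem_centralizer_iff F |>.1 (h1 (Algebra.mem_top (R := F) (x := Matrix.single i j (1 : F)))) T rfl
    exact h3.symm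
  obtain ⟨c, hc⟩ := h2
  refine ⟨c, ?_⟩
  rw [← hc, Matrix.scalar_apply, Matrix.smul_one_eq_diagonal]

end Cfsg.Agent.H933.HeartTr
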