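import Cfsg.Agent.H933.O10.L2
import Cfsg.Agent.ClassicalGeometry.AutPSL.Main

/-!
# `L₂(11)` in `Ω₁₀^±(q)`: generalities (helper933)

* `tr_same` : in degree `q - 1` the trace of a noncentral element of `SL₂(q)` depends on its matrix trace only;
* `Rp P ρ` : `ρ : SL₂(11) → GL₁₀(F)` with range `P` and kernel the centre;
* `Rp.exists_cj` : the elements of `H` act on `P` as elements of `GL₂(11)`.
-/

set_option autoImplicit false
set_option linter.unusedSectionVars false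

namespace Cfsg.Agent.H933.L11

open Matrix Module Cfsg Cfsg.Geo Cfsg.Agent.H464.Sl2 Cfsg.Agent.H915.LD Cfsg.Agent.H933.O10

universe u v

section same

variable {ι : Type} [Fintype ι] [DecidableEq ι] {F : Type u} [Field F] {P : Subgroup (GL ι F)}
  {K : Type v} [Field K] [Fintype K] [DecidableEq K]

/-- **Equal matrix traces.** -/
theorem tr_same (p : ℕ) [hp : Fact p.Prime] [CharP F p] (hC : Core P) (ρ : SpecialLinearGroup (Fin 2) K →* GL ι F)
    (hρ : ρ.range = P) (hpK : ¬ p ∣ Fintype.card K) (h4 : 4 ≤ Fintype.card K)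
    (hn : Fintype.card ι + 1 = Fintype.card K) {g g' : SpecialLinearGroup (Fin 2) K}
    (hg : ∀ ε : Kˣ, ε ^ 2 = 1 → g ≠ t ε) (hg' : ∀ ε : Kˣ, ε ^ 2 = 1 → g' ≠ t ε)
    (h : g.1 0 0 + g.1 1 1 = g'.1 0 0 + g'.1 1 1) : tr (ρ g) = tr (ρ g') := by
  obtain ⟨R, ψ, hψ, hK, hspan, hR, hchi, -⟩ := exists_mod hC ρ hρ (card_cast_ne p hpK)
  obtain ⟨hall, -⟩ := full_cases R hψ hK hspan hR h4 (by rw [Module.finrank_fin_fun]; omega)
  apply (algebraMap F (AlgebraicClosure F)).injective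
  rw [← hchi, ← hchi, chi_eq R hψ hK (by omega) hspan hall hg, chi_eq R hψ hK (by omega) hspan hall hg', h]

end same

instance fact11 : Fact (Nat.Prime 11) := ⟨by norm_num⟩

local notation "G11" => SpecialLinearGroup (Fin 2) (ZMod 11)

/-- noncentral elements -/
def NC (g : G11) : Prop := ∀ ε : (ZMod 11)ˣ, ε ^ 2 = 1 → g ≠ t ε

theorem nc_of {g : G11} (h : g.1 0 1 = 0 → g.1 1 0 = 0 → g.1 0 0 ≠ g.1 1 1) : NC g := by
  rintro ε hε rfl
  refine h rfl rfl ?_
  change (ε : ZMod 11) = ((ε⁻¹ : (ZMod 11)ˣ) : ZMod 11)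
  congr 1
  rw [eq_inv_iff_mul_eq_one, ← sq, hε]

theorem det_eq (g : G11) : g.1 0 0 * g.1 1 1 - g.1 0 1 * g.1 1 0 = 1 := by
  have := g.2
  rwa [Matrix.det_fin_two] at this

/-- central or noncentral -/
theorem cases_nc (g : G11) : g = 1 ∨ g = t (-1) ∨ NC g ∧ (g.1 0 1 = 0 → g.1 1 0 = 0 → g.1 0 0 ≠ g.1 1 1) := by
  by_cases h : g.1 0 1 = 0 ∧ g.1 1 0 = 0 ∧ g.1 0 0 = g.1 1 1
  · obtain ⟨h1, h2, h3⟩ := h
    have h4 := det_eq g
    rw [h1, zero_mul, sub_zero, h3] at h4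
    rcases mul_self_eq_one_iff.1 h4 with h5 | h5
    · left
      apply Subtype.ext
      ext i j
      fin_cases i <;> fin_cases j <;> simp [h1, h2, h3, h5]
    · right; left
      apply Subtype.ext
      ext i j
      fin_cases i <;> fin_cases j <;> simp [h1, h2, h3, h5]
  · right; right
    have h5 : g.1 0 1 = 0 → g.1 1 0 = 0 → g.1 0 0 ≠ g.1 1 1 := fun h1 h2 h3 => h ⟨h1, h2, h3⟩
    exact ⟨nc_of h5, h5⟩

variable {F : Type u} [Field F] {p : ℕ} {Q : (Fin 10 → F) → F} {H P : Subgroup (GL (Fin 10) F)}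

/-- `ρ` has range `P` and kernel the centre -/
structure Rp (P : Subgroup (GL (Fin 10) F)) (ρ : G11 →* GL (Fin 10) F) : Prop where
  range : ρ.range = P
  ker : ρ.ker = Subgroup.center G11

theorem mem_center_iff {g : G11} : g ∈ Subgroup.center G11 ↔ g = 1 ∨ g = t (-1) := by
  constructor
  · intro hg
    rcases cases_nc g with h | h | ⟨-, h⟩
    · exact Or.inl h
    · exact Or.inr h
    · exfalso
      rw [Matrix.SpecialLinearGroup.mem_center_iff] at hg
      obtain ⟨r, -, hr⟩ := hg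
      rw [← hr] at h
      exact h (by simp) (by simp) (by simp)
  · rintro (rfl | rfl)
    · exact one_mem _
    · rw [Subgroup.mem_center_iff]
      intro g
      exact (t_sq_central (by simp) g).symm

theorem Rp.map_eq_one {ρ : G11 →* GL (Fin 10) F} (r : Rp P ρ) {g : G11} : ρ g = 1 ↔ g = 1 ∨ g = t (-1) := by
  rw [← mem_center_iff, ← r.ker, MonoidHom.mem_ker]

theorem Rp.mem {ρ : G11 →* GL (Fin 10) F} (r : Rp P ρ) (g : G11) : ρ g ∈ P := by rw [← r.range]; exact ⟨g, rfl⟩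

theorem Rp.exists_eq {ρ : G11 →* GL (Fin 10) F} (r : Rp P ρ) {x : GL (Fin 10) F} (hx : x ∈ P) : ∃ g, ρ g = x := by
  rw [← r.range] at hx
  exact hx

/-- `PSL₂(11) ≃ P` -/
noncomputable def Rp.equiv {ρ : G11 →* GL (Fin 10) F} (r : Rp P ρ) : ProjectiveSpecialLinearGroup (Fin 2) (ZMod 11) ≃* P :=
  (QuotientGroup.quotientMulEquivOfEq r.ker.symm).trans
    ((QuotientGroup.quotientKerEquivRange ρ).trans (MulEquiv.subgroupCongr r.range))

theorem Rp.equiv_mk {ρ : G11 →* GL (Fin 10) F} (r : Rp P ρ) (g : G11) :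
    (r.equiv (QuotientGroup.mk g) : GL (Fin 10) F) = ρ g := rfl

/-- the automorphism of `P` induced by an element of `H` -/
def au (hn : ∀ h ∈ H, ∀ x ∈ P, h * x * h⁻¹ ∈ P) {x : GL (Fin 10) F} (hx : x ∈ H) : P ≃* P where
  toFun g := ⟨x * g * x⁻¹, hn x hx g g.2⟩
  invFun g := ⟨x⁻¹ * g * x, by
    have := hn x⁻¹ (inv_mem hx) g g.2
    rwa [inv_inv] at this⟩
  left_inv g := Subtype.ext (by
    change x⁻¹ * (x * g * x⁻¹) * x = g
    group)
  right_inv g := Subtype.ext (by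
    change x * (x⁻¹ * g * x) * x⁻¹ = g
    group)
  map_mul' a b := Subtype.ext (by
    change x * (a * b) * x⁻¹ = x * a * x⁻¹ * (x * b * x⁻¹)
    group)

open Cfsg.Agent.ClassicalGeometry.AutPSL.Auto (cj fld lift lift_pr) in
/-- **The elements of `H` act as elements of `GL₂(11)`.** -/
theorem Rp.exists_cj {ρ : G11 →* GL (Fin 10) F} (r : Rp P ρ) (hn : ∀ h ∈ H, ∀ x ∈ P, h * x * h⁻¹ ∈ P)
    {x : GL (Fin 10) F} (hx : x ∈ H) : ∃ A : GL (Fin 2) (ZMod 11), ∀ g : G11, x * ρ g * x⁻¹ = ρ (cj A g) := by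
  let α : MulAut (ProjectiveSpecialLinearGroup (Fin 2) (ZMod 11)) := (r.equiv.trans (au hn hx)).trans r.equiv.symm
  obtain ⟨A, σ, hα⟩ := Cfsg.Agent.ClassicalGeometry.AutPSL.Main.surj_two 11 α
  refine ⟨A, fun g => ?_⟩
  have h1 : r.equiv (α (QuotientGroup.mk g)) = au hn hx (r.equiv (QuotientGroup.mk g)) :=
    r.equiv.apply_symm_apply _
  have h2 : α (QuotientGroup.mk g) = QuotientGroup.mk (cj A g) := by
    rw [hα]
    have h3 : σ = 1 := Subsingleton.elim _ _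
    rw [h3, map_one, mul_one]
    rfl
  have h3 := congrArg Subtype.val h1
  rw [h2, r.equiv_mk] at h3
  rw [h3]
  rfl

/-- **The representation.** -/
theorem exists_rp [Fintype F] (h : Cx p Q H P) (hp : p ≠ 11)
    (e : Soc P ≃* ProjectiveSpecialLinearGroup (Fin 2) (ZMod 11)) : Fintype.card F = p ∧ ∃ ρ : G11 →* GL (Fin 10) F, Rp P ρ := by
  have := Fact.mk h.prime
  have := h.char
  have hC := h.core
  have hcard : Fintype.card (ZMod 11) = 11 := ZMod.card 11
  obtain ⟨-, h1, h2⟩ := l2_row h (by omega) (by omega)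
    (by rw [hcard]; intro h3; exact hp ((Nat.prime_dvd_prime_iff_eq h.prime (by norm_num)).1 h3)) e
  obtain ⟨ρ, hρ, hρe⟩ := l2_rep hC (by omega) (by omega) e
  refine ⟨h1, ρ, hρ, ?_⟩
  have h3 := (l2_bot_iff hC e ρ hρ hρe).1 h2
  ext g
  rw [MonoidHom.mem_ker]
  constructor
  · intro hg
    have h4 : ρ g ∈ P := by rw [hg]; exact one_mem _
    have h5 := hρe g h4
    have h6 : toSoc P ⟨ρ g, h4⟩ = 1 := by
      have h7 : (⟨ρ g, h4⟩ : P) = 1 := Subtype.ext hg
      rw [h7, map_one]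
    rw [h6, map_one] at h5
    exact (QuotientGroup.eq_one_iff g).1 h5.symm
  · intro hg
    rcases mem_center_iff.1 hg with rfl | rfl
    · rw [map_one]
    · exact h3

end Cfsg.Agent.H933.L11
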