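import Cfsg.Agent.H933.O10.L11
import Cfsg.Agent.H933.O10.HeartTr

/-!
# `L₂(11)` on eleven points (helper933)

* `X11` : eleven points with an action of `SL₂(11)`;
* `fix_card11` : the numbers of fixed points;
* `exists_system` : deleted permutation modules from traces, with the action of the symmetric group.
-/

set_option autoImplicit false
set_option linter.unusedSectionVars false
set_option maxRecDepth 100000

namespace Cfsg.Agent.H933.L11

open Matrix Module Cfsg Cfsg.Geo Cfsg.Agent.H464.Sl2 Cfsg.Agent.H915.LD Cfsg.Agent.H933.O10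

universe u v w

local notation "G11" => SpecialLinearGroup (Fin 2) (ZMod 11)

/-- eleven points -/
def X11 : Type := ZMod 11

instance : Fintype X11 := inferInstanceAs (Fintype (ZMod 11))
instance : DecidableEq X11 := inferInstanceAs (DecidableEq (ZMod 11))

/-- the involution -/
def pf (i : ZMod 11) : ZMod 11 := (![0, 9, 6, 3, 5, 4, 2, 8, 7, 1, 10] : Fin 11 → ZMod 11) i

/-- the action -/
def ph (g : G11) (i : ZMod 11) : ZMod 11 :=
  if g.1 1 0 = 0 then g.1 0 0 * g.1 0 0 * i + g.1 0 0 * g.1 0 1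
  else g.1 0 0 * (g.1 1 0)⁻¹ + pf (g.1 1 0 * g.1 1 0 * (i + g.1 1 1 * (g.1 1 0)⁻¹))

theorem ph_zero {g : G11} (h : g.1 1 0 = 0) (i : ZMod 11) : ph g i = g.1 0 0 * g.1 0 0 * i + g.1 0 0 * g.1 0 1 := if_pos h

theorem ph_ne {g : G11} (h : g.1 1 0 ≠ 0) (i : ZMod 11) :
    ph g i = g.1 0 0 * (g.1 1 0)⁻¹ + pf (g.1 1 0 * g.1 1 0 * (i + g.1 1 1 * (g.1 1 0)⁻¹)) := if_neg h

theorem pf_pf : ∀ i : ZMod 11, pf (pf i) = i := by decide +kernel

theorem pf_sq : ∀ a b i : ZMod 11, a * b = 1 → pf (a * a * i) = b * b * pf i := by decide +kernel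

theorem pf_rel : ∀ c d e i : ZMod 11, c * d * e = 1 → pf (d * d * i - c * d) = e + pf (c * c * pf i + c * d) := by
  decide +kernel

theorem mul_apply (g h : G11) (i j : Fin 2) : (g * h).1 i j = g.1 i 0 * h.1 0 j + g.1 i 1 * h.1 1 j := by
  change (g.1 * h.1) i j = _
  rw [Matrix.mul_apply, Fin.sum_univ_two]

theorem ph_u (g : G11) (x i : ZMod 11) : ph (g * u x) i = ph g (ph (u x) i) := by
  have e00 : (g * u x).1 0 0 = g.1 0 0 := by rw [mul_apply]; simp
  have e01 : (g * u x).1 0 1 = g.1 0 0 * x + g.1 0 1 := by rw [mul_apply]; simp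
  have e10 : (g * u x).1 1 0 = g.1 1 0 := by rw [mul_apply]; simp
  have e11 : (g * u x).1 1 1 = g.1 1 0 * x + g.1 1 1 := by rw [mul_apply]; simp
  have hu : ph (u x) i = i + x := by
    rw [ph_zero (by simp)]
    simp
  rw [hu]
  by_cases h : g.1 1 0 = 0
  · rw [ph_zero (by rw [e10, h]), ph_zero h, e00, e01]
    ring
  · rw [ph_ne (by rw [e10]; exact h), ph_ne h, e00, e10, e11]
    congr 2
    field_simp
    ring

theorem ph_t (g : G11) (a : (ZMod 11)ˣ) (i : ZMod 11) : ph (g * t a) i = ph g (ph (t a) i) := by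
  have ha : (a : ZMod 11) ≠ 0 := a.ne_zero
  have t00 : (t a).1 0 0 = (a : ZMod 11) := rfl
  have t01 : (t a).1 0 1 = (0 : ZMod 11) := rfl
  have t10 : (t a).1 1 0 = (0 : ZMod 11) := rfl
  have t11 : (t a).1 1 1 = (a : ZMod 11)⁻¹ := Units.val_inv_eq_inv_val a
  have e00 : (g * t a).1 0 0 = g.1 0 0 * a := by rw [mul_apply, t00, t10, mul_zero, add_zero]
  have e01 : (g * t a).1 0 1 = g.1 0 1 * (a : ZMod 11)⁻¹ := by rw [mul_apply, t01, t11, mul_zero, zero_add]
  have e10 : (g * t a).1 1 0 = g.1 1 0 * a := by rw [mul_apply, t00, t10, mul_zero, add_zero]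
  have e11 : (g * t a).1 1 1 = g.1 1 1 * (a : ZMod 11)⁻¹ := by rw [mul_apply, t01, t11, mul_zero, zero_add]
  have hu : ph (t a) i = a * a * i := by
    rw [ph_zero t10, t00, t01, mul_zero, add_zero]
  rw [hu]
  by_cases h : g.1 1 0 = 0
  · rw [ph_zero (by rw [e10, h, zero_mul]), ph_zero h, e00, e01]
    field_simp
  · rw [ph_ne (by rw [e10]; exact mul_ne_zero h ha), ph_ne h, e00, e10, e11]
    have k1 : g.1 0 0 * (a : ZMod 11) * (g.1 1 0 * (a : ZMod 11))⁻¹ = g.1 0 0 * (g.1 1 0)⁻¹ := by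
      field_simp
    have k2 : g.1 1 0 * (a : ZMod 11) * (g.1 1 0 * (a : ZMod 11)) *
        (i + g.1 1 1 * (a : ZMod 11)⁻¹ * (g.1 1 0 * (a : ZMod 11))⁻¹) =
        g.1 1 0 * g.1 1 0 * ((a : ZMod 11) * (a : ZMod 11) * i + g.1 1 1 * (g.1 1 0)⁻¹) := by
      field_simp
    rw [k1, k2]

theorem ph_w (g : G11) (i : ZMod 11) : ph (g * w 1) i = ph g (ph (w 1) i) := by
  have e00 : (g * w 1).1 0 0 = g.1 0 1 := by rw [mul_apply]; simp
  have e01 : (g * w 1).1 0 1 = -g.1 0 0 := by rw [mul_apply]; simp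
  have e10 : (g * w 1).1 1 0 = g.1 1 1 := by rw [mul_apply]; simp
  have e11 : (g * w 1).1 1 1 = -g.1 1 0 := by rw [mul_apply]; simp
  have hu : ph (w 1) i = pf i := by
    rw [ph_ne (by simp)]
    simp
  have hd := det_eq g
  rw [hu]
  by_cases h : g.1 1 0 = 0
  · rw [h, mul_zero, sub_zero] at hd
    have h1 : g.1 1 1 ≠ 0 := fun h2 => by rw [h2, mul_zero] at hd; exact zero_ne_one hd
    have h0 : g.1 0 0 ≠ 0 := fun h2 => by rw [h2, zero_mul] at hd; exact zero_ne_one hd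
    rw [ph_ne (by rw [e10]; exact h1), ph_zero h, e00, e10, e11, h, neg_zero, zero_mul, add_zero,
      pf_sq _ _ i (by rw [mul_comm]; exact hd)]
    have h2 : (g.1 1 1)⁻¹ = g.1 0 0 := inv_eq_of_mul_eq_one_left hd
    rw [h2]
    ring
  · by_cases h1 : g.1 1 1 = 0
    · rw [ph_zero (by rw [e10, h1]), ph_ne h, e00, e01, h1, zero_mul, add_zero]
      rw [h1, mul_zero, zero_sub] at hd
      have h2 : (g.1 1 0)⁻¹ = -g.1 0 1 := inv_eq_of_mul_eq_one_left (by rw [neg_mul]; exact hd)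
      rw [pf_sq _ _ (pf i) (by rw [mul_comm, neg_mul]; exact hd : g.1 1 0 * (-g.1 0 1) = 1), pf_pf, h2]
      ring
    · rw [ph_ne (by rw [e10]; exact h1), ph_ne h, e00, e10, e11]
      have h2 : g.1 1 0 * g.1 1 1 * ((g.1 1 0)⁻¹ * (g.1 1 1)⁻¹) = 1 := by
        field_simp
      have h3 := pf_rel _ _ _ i h2
      have h4 : g.1 1 1 * g.1 1 1 * (i + -g.1 1 0 * (g.1 1 1)⁻¹) = g.1 1 1 * g.1 1 1 * i - g.1 1 0 * g.1 1 1 := by
        field_simp
        ring
      have h5 : g.1 1 0 * g.1 1 0 * (pf i + g.1 1 1 * (g.1 1 0)⁻¹) = g.1 1 0 * g.1 1 0 * pf i + g.1 1 0 * g.1 1 1 := by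
        field_simp
      rw [h4, h5, h3]
      have h6 : g.1 0 1 * (g.1 1 1)⁻¹ + (g.1 1 0)⁻¹ * (g.1 1 1)⁻¹ = g.1 0 0 * (g.1 1 0)⁻¹ := by
        field_simp
        linear_combination -hd
      rw [← h6]
      ring

theorem ph_mul (g h : G11) (i : ZMod 11) : ph (g * h) i = ph g (ph h i) := by
  have hw : ∀ (g : G11) (c : (ZMod 11)ˣ) (i : ZMod 11), ph (g * w c) i = ph g (ph (w c) i) := by
    intro g c i
    rw [← w_one_mul_t, ← mul_assoc, ph_t, ph_w, ph_t (w 1)]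
  rcases bruhat h with ⟨x, a, rfl⟩ | ⟨x, c, y, rfl⟩
  · rw [← mul_assoc, ph_t, ph_u, ph_t (u x)]
  · rw [← mul_assoc, ← mul_assoc, ph_u, hw, ph_u, ph_u (u x * w c), hw (u x)]

theorem ph_one (i : ZMod 11) : ph 1 i = i := by
  rw [ph_zero (by simp)]
  simp

instance : MulAction G11 X11 where
  smul g i := ph g i
  one_smul i := ph_one i
  mul_smul g h i := ph_mul g h i

theorem smul_eq (g : G11) (i : X11) : g • i = ph g i := rfl

/-- the number of fixed points -/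
def N11 (s : ZMod 11) : ℕ := if s = 0 then 3 else if s = 1 ∨ s = 10 then 2 else
  if s = 3 ∨ s = 4 ∨ s = 7 ∨ s = 8 then 1 else 0

theorem cnt_big : ∀ x c y : ZMod 11, c ≠ 0 →
    (Finset.univ.filter fun i : ZMod 11 => x + pf (c * c * (i + y)) = i).card = N11 (c * (x + y)) := by
  decide +kernel

theorem cnt_bor : ∀ a d b : ZMod 11, a * d = 1 → (b = 0 → a ≠ d) →
    (Finset.univ.filter fun i : ZMod 11 => a * a * i + a * b = i).card = N11 (a + d) := by
  decide +kernel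

theorem cnt_ph (g : G11) (hg : g.1 0 1 = 0 → g.1 1 0 = 0 → g.1 0 0 ≠ g.1 1 1) :
    (Finset.univ.filter fun x : ZMod 11 => ph g x = x).card = N11 (g.1 0 0 + g.1 1 1) := by
  have hd := det_eq g
  by_cases h : g.1 1 0 = 0
  · rw [h, mul_zero, sub_zero] at hd
    rw [← cnt_bor _ _ (g.1 0 1) hd (fun h1 => hg h1 h)]
    exact congrArg Finset.card (Finset.filter_congr fun i _ => by rw [ph_zero h])
  · have h1 : g.1 0 0 + g.1 1 1 = g.1 1 0 * (g.1 0 0 * (g.1 1 0)⁻¹ + g.1 1 1 * (g.1 1 0)⁻¹) := by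
      field_simp
    rw [h1, ← cnt_big _ _ _ h]
    exact congrArg Finset.card (Finset.filter_congr fun i _ => by rw [ph_ne h])

theorem fix_card11 (g : G11) (hg : g.1 0 1 = 0 → g.1 1 0 = 0 → g.1 0 0 ≠ g.1 1 1) :
    (Finset.univ.filter fun x : X11 => g • x = x).card = N11 (g.1 0 0 + g.1 1 1) := cnt_ph g hg

theorem ph_t_neg (x : ZMod 11) : ph (t (-1 : (ZMod 11)ˣ)) x = x := by
  rw [ph_zero rfl]
  change ((-1 : (ZMod 11)ˣ) : ZMod 11) * ((-1 : (ZMod 11)ˣ) : ZMod 11) * x + ((-1 : (ZMod 11)ˣ) : ZMod 11) * 0 = x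
  rw [Units.val_neg, Units.val_one]
  ring

theorem t_smul11 (x : X11) : (t (-1 : (ZMod 11)ˣ)) • x = x := ph_t_neg x

theorem card_X11 : Fintype.card X11 = 11 := ZMod.card 11

/-- the base point -/
def o11 : X11 := (0 : ZMod 11)

theorem ph_u_zero (x : ZMod 11) : ph (u x) 0 = x := by
  rw [ph_zero rfl]
  change (1 : ZMod 11) * 1 * 0 + 1 * x = x
  ring

/-- transitivity -/
theorem trans11 (x : X11) : ∃ g : G11, g • o11 = x := ⟨u (x : ZMod 11), ph_u_zero x⟩

theorem trans_aux : ∀ j : ZMod 11, j ≠ 0 → ∃ c x y : ZMod 11, c ≠ 0 ∧ x + pf (c * c * (0 + y)) = 0 ∧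
    x + pf (c * c * (1 + y)) = j := by
  decide +kernel

theorem trans_key (j : ZMod 11) (hj : j ≠ 0) : ∃ g : G11, ph g 0 = 0 ∧ ph g 1 = j := by
  obtain ⟨c, x, y, hc, h1, h2⟩ := trans_aux j hj
  have h10 : (u x * w (Units.mk0 c hc) * u y : G11).1 1 0 = c := by
    rw [mul_apply, mul_apply, mul_apply]
    simp
  have h11 : (u x * w (Units.mk0 c hc) * u y : G11).1 1 1 = c * y := by
    rw [mul_apply, mul_apply, mul_apply]
    simp
  have h00 : (u x * w (Units.mk0 c hc) * u y : G11).1 0 0 = x * c := by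
    rw [mul_apply, mul_apply, mul_apply]
    simp
  have h3 : ∀ i : ZMod 11, ph (u x * w (Units.mk0 c hc) * u y) i = x + pf (c * c * (i + y)) := by
    intro i
    rw [ph_ne (by rw [h10]; exact hc), h10, h11, h00]
    congr 2
    · field_simp
    · field_simp
  exact ⟨_, (h3 0).trans h1, (h3 1).trans h2⟩

/-- the stabiliser of the base point is transitive on the other points -/
theorem trans11' (x y : X11) (hx : x ≠ o11) (hy : y ≠ o11) : ∃ g : G11, g • o11 = o11 ∧ g • x = y := by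
  obtain ⟨a, ha, ha'⟩ := trans_key x hx
  obtain ⟨b, hb, hb'⟩ := trans_key y hy
  let i11 : X11 := (1 : ZMod 11)
  have ha : a • o11 = o11 := ha
  have hb : b • o11 = o11 := hb
  have ha' : a • i11 = x := ha'
  have hb' : b • i11 = y := hb'
  refine ⟨b * a⁻¹, ?_, ?_⟩
  · rw [mul_smul]
    nth_rewrite 1 [← ha]
    rw [inv_smul_smul, hb]
  · rw [mul_smul, ← ha', inv_smul_smul, hb']

end Cfsg.Agent.H933.L11
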