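import Cfsg.Agent.H933.O10.L11

/-!
# `L₂(11)` in `Ω₁₀^±(q)`: the traces (helper933)

* `Rp.zeta` : the traces of a core with socle `L₂(11)` in `GL₁₀`.
-/

set_option autoImplicit false
set_option linter.unusedSectionVars false

namespace Cfsg.Agent.H933.L11

open Matrix Module Cfsg Cfsg.Geo Cfsg.Agent.H464.Sl2 Cfsg.Agent.H915.LD Cfsg.Agent.H933.O10

universe u v

local notation "G11" => SpecialLinearGroup (Fin 2) (ZMod 11)

variable {F : Type u} [Field F] {p : ℕ} {Q : (Fin 10 → F) → F} {H P : Subgroup (GL (Fin 10) F)}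

theorem all11 : ∀ s : ZMod 11, s = 0 ∨ s = 1 ∨ s = 2 ∨ s = 3 ∨ s = 4 ∨ s = 5 ∨ s = 6 ∨ s = 7 ∨ s = 8 ∨ s = 9 ∨
    s = 10 := by decide

theorem zt0 : Zt (0 : ZMod 11) ^ 4 = 1 := by decide +kernel
theorem zt1 : Zt (1 : ZMod 11) ^ 6 = 1 := by decide +kernel
theorem zt10 : Zt (10 : ZMod 11) ^ 3 = 1 := by decide +kernel

theorem ns_cases : ∀ τ : ZMod 11, (∀ x : ZMod 11, x ^ 2 - τ * x + 1 ≠ 0) → τ = 0 ∨ τ = 1 ∨ τ = 5 ∨ τ = 6 ∨ τ = 10 := by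
  decide +kernel

theorem gen_cases {τ : ZMod 11} (hg : Gen τ) : τ = 5 ∨ τ = 6 := by
  have h12 : ∀ n : ℕ, Zt τ ^ n = 1 → 12 ∣ n := hg.one
  rcases ns_cases τ hg.ns with h | h | h | h | h
  · exfalso
    rw [h] at h12
    have := h12 4 zt0
    omega
  · exfalso
    rw [h] at h12
    have := h12 6 zt1
    omega
  · exact Or.inl h
  · exact Or.inr h
  · exfalso
    rw [h] at h12
    have := h12 3 zt10
    omega

/-- matrix trace and a nonzero entry -/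
def Zc (τ : ZMod 11) (n : ℕ) (s : ZMod 11) : Prop :=
  (Zt τ ^ n).1 0 0 + (Zt τ ^ n).1 1 1 = s ∧ (Zt τ ^ n).1 1 0 ≠ 0

instance (τ : ZMod 11) (n : ℕ) (s : ZMod 11) : Decidable (Zc τ n s) := by unfold Zc; infer_instance

theorem zc (τ : ZMod 11) (h : τ = 5 ∨ τ = 6) : Zc τ 3 0 ∧ Zc τ 2 1 ∧ Zc τ 4 10 ∧
    (Zc τ 1 5 ∨ Zc τ 7 5) ∧ (Zc τ 1 6 ∨ Zc τ 7 6) := by
  rcases h with rfl | rfl
  · decide +kernel
  · decide +kernel

/-- **The traces.** -/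
theorem Rp.zeta [Fintype F] (h : Cx p Q H P) (hp : p ≠ 11) {ρ : G11 →* GL (Fin 10) F} (r : Rp P ρ) :
    ∃ ζ : AlgebraicClosure F, ζ ≠ 0 ∧ ζ ^ 6 = 1 ∧ ζ ≠ -1 ∧ (ζ = 1 → p ∣ 12) ∧ ∀ g : G11, NC g →
      (g.1 0 0 + g.1 1 1 = 2 ∨ g.1 0 0 + g.1 1 1 = 9 → tr (ρ g) = -1) ∧
      (g.1 0 0 + g.1 1 1 = 3 ∨ g.1 0 0 + g.1 1 1 = 4 ∨ g.1 0 0 + g.1 1 1 = 7 ∨ g.1 0 0 + g.1 1 1 = 8 → tr (ρ g) = 0) ∧
      (g.1 0 0 + g.1 1 1 = 0 → algebraMap F (AlgebraicClosure F) (tr (ρ g)) = -(ζ ^ 3 + (ζ⁻¹) ^ 3)) ∧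
      (g.1 0 0 + g.1 1 1 = 1 ∨ g.1 0 0 + g.1 1 1 = 10 →
        algebraMap F (AlgebraicClosure F) (tr (ρ g)) = -(ζ ^ 2 + (ζ⁻¹) ^ 2)) ∧
      (g.1 0 0 + g.1 1 1 = 5 ∨ g.1 0 0 + g.1 1 1 = 6 →
        algebraMap F (AlgebraicClosure F) (tr (ρ g)) = -(ζ + ζ⁻¹)) := by
  have := Fact.mk h.prime
  have := h.char
  have hC := h.core
  have hcard : Fintype.card (ZMod 11) = 11 := ZMod.card 11
  have hpK : ¬ p ∣ Fintype.card (ZMod 11) := by
    rw [hcard]; intro h3; exact hp ((Nat.prime_dvd_prime_iff_eq h.prime (by norm_num)).1 h3)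
  obtain ⟨τ₀, hg⟩ := exists_Gen (ZMod 11)
  obtain ⟨ζ, h1, -, h3, h4, h6, h7, h8, h9, -⟩ := cusp_field p hC ρ r.range hpK (by omega)
    (by rw [Fintype.card_fin, hcard]) hg
  have hodd : Odd (Fintype.card (ZMod 11)) := by rw [hcard]; decide
  have z6 : ζ ^ 6 = 1 := by
    have h10 := h6 hodd 1 (by rw [one_smul, r.map_eq_one.2 (Or.inr rfl)]; rfl)
    rw [map_one, hcard] at h10
    exact h10.symm
  have zi6 : (ζ⁻¹) ^ 6 = 1 := by rw [inv_pow, z6, inv_one]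
  have same : ∀ g g' : G11, NC g → NC g' → g.1 0 0 + g.1 1 1 = g'.1 0 0 + g'.1 1 1 → tr (ρ g) = tr (ρ g') :=
    fun g g' hg hg' hgg => tr_same p hC ρ r.range hpK (by omega) (by rw [Fintype.card_fin, hcard]) hg hg' hgg
  have hzt : ∀ (g : G11) (n : ℕ) (s : ZMod 11), NC g → g.1 0 0 + g.1 1 1 = s → Zc τ₀ n s →
      algebraMap F (AlgebraicClosure F) (tr (ρ g)) = -(ζ ^ n + (ζ⁻¹) ^ n) := by
    intro g n s hg hs hz
    rw [same g (Zt τ₀ ^ n) hg (nc_of fun _ h => absurd h hz.2) (hs.trans hz.1.symm), h7 n hz.2]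
  obtain ⟨z3, z2, z4, z5, z6'⟩ := zc τ₀ (gen_cases hg)
  refine ⟨ζ, h1, z6, h3 hodd, fun h => by have := h4 h; rwa [hcard] at this, fun g hg => ⟨?_, ?_, ?_, ?_, ?_⟩⟩
  · rintro (hs | hs)
    · rw [same g (u 1) hg (nc_of (by decide)) (by rw [hs]; decide)]
      exact h9 1 (by decide)
    · rw [same g (t (-1) * u 1) hg (nc_of (by decide)) (by rw [hs]; decide), map_mul, r.map_eq_one.2 (Or.inr rfl), one_mul]
      exact h9 1 (by decide)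
  · have key : ∀ a b : ZMod 11, a * b = 1 → a ^ 2 ≠ 1 → g.1 0 0 + g.1 1 1 = a + b → tr (ρ g) = 0 := by
      intro a b hab ha hs
      let a' : (ZMod 11)ˣ := ⟨a, b, hab, by rw [mul_comm]; exact hab⟩
      have ha' : a' ^ 2 ≠ 1 := fun h => ha (by
        have h5 : ((a' ^ 2 : (ZMod 11)ˣ) : ZMod 11) = 1 := by rw [h]; rfl
        rw [Units.val_pow_eq_pow_val] at h5
        exact h5)
      have hne : a ≠ b := fun h => ha (by rw [sq]; nth_rewrite 2 [h]; exact hab)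
      rw [same g (t a') hg (nc_of fun _ _ => hne) hs]
      exact h8 a' ha'
    rintro (hs | hs | hs | hs)
    · exact key 5 9 (by decide) (by decide) (by rw [hs]; decide)
    · exact key 7 8 (by decide) (by decide) (by rw [hs]; decide)
    · exact key 3 4 (by decide) (by decide) (by rw [hs]; decide)
    · exact key 2 6 (by decide) (by decide) (by rw [hs]; decide)
  · intro hs
    exact hzt g 3 0 hg hs z3
  · rintro (hs | hs)
    · exact hzt g 2 1 hg hs z2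
    · rw [hzt g 4 10 hg hs z4]
      have e1 : ζ ^ 4 = (ζ⁻¹) ^ 2 := by
        rw [inv_pow]
        exact eq_inv_of_mul_eq_one_left (by rw [← pow_add, z6])
      have e2 : (ζ⁻¹) ^ 4 = ζ ^ 2 := by
        rw [inv_pow]
        exact inv_eq_of_mul_eq_one_left (by rw [← pow_add, z6])
      rw [e1, e2, add_comm]
  · have key : ∀ s : ZMod 11, g.1 0 0 + g.1 1 1 = s → Zc τ₀ 1 s ∨ Zc τ₀ 7 s →
        algebraMap F (AlgebraicClosure F) (tr (ρ g)) = -(ζ + ζ⁻¹) := by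
      rintro s hs (hz | hz)
      · rw [hzt g 1 s hg hs hz, pow_one, pow_one]
      · rw [hzt g 7 s hg hs hz, show ζ ^ 7 = ζ by rw [pow_succ, z6, one_mul],
          show (ζ⁻¹) ^ 7 = ζ⁻¹ by rw [pow_succ, zi6, one_mul]]
    rintro (hs | hs)
    · exact key 5 hs z5
    · exact key 6 hs z6'

end Cfsg.Agent.H933.L11
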