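import Cfsg.Agent.H933.O10.L11Pts
import Cfsg.Agent.H933.O10.L11Tr
import Cfsg.Agent.H933.O10.DelNM

/-!
# `L₂(11)` in `Ω₁₀^±(q)`: the degree `10a` (helper933)

* `exists_system` : deleted permutation modules from traces, with the action of the symmetric group.
* `Rp.kill` : a core `L₂(11)` with the traces of the deleted permutation module of degree 11, and all elements of `H`
  acting as inner automorphisms: impossible.
-/

set_option autoImplicit false
set_option linter.unusedSectionVars false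

namespace Cfsg.Agent.H933.L11

open Matrix Module Cfsg Cfsg.Geo Cfsg.Agent.H464.Sl2 Cfsg.Agent.H915.LD Cfsg.Agent.H933.O10
open Cfsg.Agent.H926.PermTr (bv pmRep pm pm_trace pm_mulVec bv_ne sum_bv)

universe u v w

section sys

variable {ι : Type} [Fintype ι] [DecidableEq ι] {F : Type u} [Field F]

/-- **The deleted permutation module from its traces.** -/
theorem exists_system {G : Type w} [Group G] {ρ : G →* GL ι F}
    (habs : ActsAbsolutelyIrreducibly (matrixSet ρ.range)) [Nonempty ι] {X : Type v} [Fintype X]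
    [DecidableEq X] [MulAction G X] (hcard : Fintype.card X = Fintype.card ι + 1)
    (htr : ∀ g : G, tr (ρ g) = ((Finset.univ.filter fun x : X => g • x = x).card : F) - 1) :
    ∃ (S : Equiv.Perm X →* GL ι F) (W : X → (ι → F)), (∀ g : G, S (MulAction.toPermHom G X g) = ρ g) ∧
      (∀ (σ : Equiv.Perm X) (x : X), (S σ : Matrix ι ι F) *ᵥ W x = W (σ x)) ∧ ∑ x, W x = 0 ∧ ∀ x, W x ≠ 0 := by
  let e : X ≃ Option ι := Fintype.equivOfCardEq (by rw [hcard, Fintype.card_option])
  let π₀ : Equiv.Perm X →* Equiv.Perm (Option ι) := (Equiv.permCongrHom e).toMonoidHom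
  have hπ₀ : ∀ (σ : Equiv.Perm X) (x : X), π₀ σ (e x) = e (σ x) := by
    intro σ x
    change e (σ (e.symm (e x))) = _
    rw [e.symm_apply_apply]
  let π : G →* Equiv.Perm (Option ι) := π₀.comp (MulAction.toPermHom G X)
  have hπ : ∀ (g : G) (x : X), π g (e x) = e (g • x) := fun g x => hπ₀ _ x
  obtain ⟨J, hJ⟩ := H920.exists_conj_of_trace ρ ((pmRep F ι).comp π)
    (by
      have h1 : (Set.range fun g : G => ((ρ g : GL ι F) : Matrix ι ι F)) = matrixSet ρ.range := by
        ext M
        constructor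
        · rintro ⟨g, rfl⟩
          exact ⟨ρ g, ⟨g, rfl⟩, rfl⟩
        · rintro ⟨_, ⟨g, rfl⟩, rfl⟩
          exact ⟨g, rfl⟩
      rw [h1]
      exact H920.adjoin_eq_top habs)
    (by
      intro g
      have h1 : (((pmRep F ι).comp π g : GL ι F) : Matrix ι ι F) = pm F (π g) := rfl
      rw [h1, pm_trace]
      have h2 := htr g
      rw [tr] at h2
      rw [h2]
      congr 2
      apply Finset.card_bij (fun x _ => e x)
      · intro x hx
        rw [Finset.mem_filter] at hx ⊢
        exact ⟨Finset.mem_univ _, by rw [hπ, hx.2]⟩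
      · intro x _ y _ hxy
        exact e.injective hxy
      · intro y hy
        rw [Finset.mem_filter] at hy
        refine ⟨e.symm y, ?_, e.apply_symm_apply y⟩
        rw [Finset.mem_filter]
        refine ⟨Finset.mem_univ _, e.injective ?_⟩
        rw [← hπ, e.apply_symm_apply, hy.2])
  refine ⟨(MulAut.conj J⁻¹).toMonoidHom.comp ((pmRep F ι).comp π₀),
    fun x => ((J⁻¹ : GL ι F) : Matrix ι ι F) *ᵥ bv F (e x), ?_, ?_, ?_, ?_⟩
  · intro g
    change J⁻¹ * ((pmRep F ι).comp π g) * J⁻¹⁻¹ = ρ g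
    rw [hJ g]
    group
  · intro σ x
    change ((J⁻¹ * (pmRep F ι (π₀ σ)) * J⁻¹⁻¹ : GL ι F) : Matrix ι ι F) *ᵥ _ = _
    rw [Matrix.mulVec_mulVec, ← Units.val_mul, inv_mul_cancel_right, Units.val_mul, ← Matrix.mulVec_mulVec]
    change _ *ᵥ (pm F (π₀ σ) *ᵥ bv F (e x)) = _
    rw [pm_mulVec, hπ₀]
  · rw [← Matrix.mulVec_sum, Equiv.sum_comp e (fun y => bv F y), sum_bv, Matrix.mulVec_zero]
  · intro x h
    apply bv_ne (F := F) (e x)
    have h1 := congrArg (fun w => (J : Matrix ι ι F) *ᵥ w) h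
    simp only [Matrix.mulVec_zero] at h1
    rwa [Matrix.mulVec_mulVec, ← Units.val_mul, mul_inv_cancel, Units.val_one, Matrix.one_mulVec] at h1

end sys

local notation "G11" => SpecialLinearGroup (Fin 2) (ZMod 11)

variable {F : Type u} [Field F] {p : ℕ} {Q : (Fin 10 → F) → F} {H P : Subgroup (GL (Fin 10) F)}

/-- the homomorphism onto `P` -/
def Rp.hom {ρ : G11 →* GL (Fin 10) F} (r : Rp P ρ) : G11 →* P := ρ.codRestrict P r.mem

theorem Rp.hom_surj {ρ : G11 →* GL (Fin 10) F} (r : Rp P ρ) : Function.Surjective r.hom := by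
  rintro ⟨x, hx⟩
  obtain ⟨g, hg⟩ := r.exists_eq hx
  exact ⟨g, Subtype.ext hg⟩

theorem Rp.ker_hom {ρ : G11 →* GL (Fin 10) F} (r : Rp P ρ) {g : G11} (hg : r.hom g = 1) (x : X11) : g • x = x := by
  have h1 : ρ g = 1 := congrArg Subtype.val hg
  rcases r.map_eq_one.1 h1 with rfl | rfl
  · exact one_smul _ x
  · exact t_smul11 x

/-- the size of `L₂(11)` -/
theorem not_a11 (e : ProjectiveSpecialLinearGroup (Fin 2) (ZMod 11) ≃* alternatingGroup (Fin 11)) : False := by
  have h1 : Nat.card (ProjectiveSpecialLinearGroup (Fin 2) (ZMod 11)) ≤ Nat.card G11 :=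
    Nat.card_le_card_of_surjective _ (QuotientGroup.mk_surjective (s := Subgroup.center G11))
  have h2 : Nat.card G11 ≤ Nat.card (Matrix (Fin 2) (Fin 2) (ZMod 11)) :=
    Nat.card_le_card_of_injective (fun g : G11 => g.1) Subtype.val_injective
  have h3 : Nat.card (Matrix (Fin 2) (Fin 2) (ZMod 11)) = 14641 := by
    change Nat.card (Fin 2 → Fin 2 → ZMod 11) = 14641
    rw [Nat.card_eq_fintype_card]
    simp
  have h4 : Nat.card (alternatingGroup (Fin 11)) = 19958400 := by
    rw [nat_card_alternatingGroup]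
    simp
    decide
  rw [Nat.card_congr e.toEquiv, h4] at h1
  omega

/-- **The deleted permutation module of degree eleven.** -/
theorem Rp.kill [Fintype F] (h : Cx p Q H P) {ρ : G11 →* GL (Fin 10) F} (r : Rp P ρ)
    (e : Soc P ≃* ProjectiveSpecialLinearGroup (Fin 2) (ZMod 11))
    (htr : ∀ g : G11, NC g → tr (ρ g) = (N11 (g.1 0 0 + g.1 1 1) : F) - 1)
    (hin : ∀ x ∈ H, ∃ g : G11, ∀ y ∈ P, x * y * x⁻¹ = ρ g * y * (ρ g)⁻¹) : False := by
  have hC := h.core
  have htr' : ∀ g : G11, tr (ρ g) = ((Finset.univ.filter fun x : X11 => g • x = x).card : F) - 1 := by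
    have hcen : ∀ g : G11, ρ g = 1 → (∀ x : X11, g • x = x) →
        tr (ρ g) = ((Finset.univ.filter fun x : X11 => g • x = x).card : F) - 1 := by
      intro g h1 h2
      rw [h1, Finset.filter_true_of_mem fun x _ => h2 x, Finset.card_univ, card_X11, tr, Units.val_one, Matrix.trace_one,
        Fintype.card_fin]
      norm_num
    intro g
    rcases cases_nc g with rfl | rfl | ⟨hg, hg'⟩
    · exact hcen _ (map_one _) fun x => one_smul _ x
    · exact hcen _ (r.map_eq_one.2 (Or.inr rfl)) t_smul11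
    · rw [fix_card11 g hg', htr g hg]
  obtain ⟨S, W, hSρ, hSW, -, hne⟩ := exists_system (ρ := ρ) (by rw [r.range]; exact hC.absIrred) (X := X11)
    (by rw [card_X11, Fintype.card_fin]) htr'
  have hgW : ∀ (g : G11) (x : X11), (ρ g : Matrix (Fin 10) (Fin 10) F) *ᵥ W x = W (g • x) := by
    intro g x
    rw [← hSρ, hSW]
    rfl
  set K : Subgroup P := (MulAction.stabilizer G11 o11).map r.hom with hK
  have hmem : ∀ g : G11, r.hom g ∈ K ↔ g • o11 = o11 := by
    intro g
    constructor
    · rintro ⟨g', hg', he⟩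
      have h1 : r.hom (g'⁻¹ * g) = 1 := by rw [map_mul, map_inv, he, inv_mul_cancel]
      have h2 := r.ker_hom h1 o11
      rw [mul_smul, inv_smul_eq_iff] at h2
      rw [h2]
      exact hg'
    · intro hg
      exact ⟨g, hg, rfl⟩
  have hKi : K.index = 11 := by
    have h1 : (MulAction.stabilizer G11 o11).index = 11 := by
      have : MulAction.IsPretransitive G11 X11 := ⟨fun x y => by
        obtain ⟨a, rfl⟩ := trans11 x
        obtain ⟨b, rfl⟩ := trans11 y
        exact ⟨b * a⁻¹, by rw [mul_smul, inv_smul_smul]⟩⟩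
      rw [MulAction.index_stabilizer_of_transitive, Nat.card_eq_fintype_card, card_X11]
    rw [hK, Subgroup.index_map_eq _ r.hom_surj (fun g hg => r.ker_hom hg o11), h1]
  obtain ⟨⟨f⟩, -⟩ := h.eleven hKi (hne o11)
    (by
      rintro k ⟨g, hg, rfl⟩
      change (ρ g : Matrix (Fin 10) (Fin 10) F) *ᵥ W o11 = W o11
      rw [hgW]
      exact congrArg W hg)
    (by
      intro g hg g' hg'
      obtain ⟨g, rfl⟩ := r.hom_surj g
      obtain ⟨g', rfl⟩ := r.hom_surj g'
      rw [hmem] at hg hg'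
      obtain ⟨s, hs, hs'⟩ := trans11' _ _ hg hg'
      refine ⟨r.hom s, (hmem s).2 hs, r.hom ((s * g)⁻¹ * g'), (hmem _).2 ?_, ?_⟩
      · rw [mul_smul, ← hs', ← mul_smul s g, inv_smul_smul]
      · rw [← map_mul, ← map_mul]
        congr 1
        group)
    (by
      intro x hx
      obtain ⟨g, hg⟩ := hin x hx
      obtain ⟨c, hc⟩ := HeartTr.schur hC.absIrred (T := (((ρ g)⁻¹ * x : GL (Fin 10) F) : Matrix (Fin 10) (Fin 10) F))
        (by
          intro y hy
          rw [← Units.val_mul, ← Units.val_mul]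
          congr 1
          have h1 := hg y hy
          calc (ρ g)⁻¹ * x * y = (ρ g)⁻¹ * (x * y * x⁻¹) * x := by group
            _ = y * ((ρ g)⁻¹ * x) := by rw [h1]; group)
      refine ⟨ρ g, r.mem g, c, ?_⟩
      have h6 : (ρ g : Matrix (Fin 10) (Fin 10) F) * (((ρ g)⁻¹ * x : GL (Fin 10) F) : Matrix (Fin 10) (Fin 10) F) =
          (x : Matrix (Fin 10) (Fin 10) F) := by
        rw [← Units.val_mul]
        congr 1
        group
      rw [← h6, hc, Matrix.mul_smul, Matrix.mul_one, Matrix.smul_mulVec])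
  exact not_a11 (e.symm.trans f)

end Cfsg.Agent.H933.L11
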