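import Cfsg.Agent.H933.O10.L11Tr
import Cfsg.Agent.H933.O10.DelTwelve
import Cfsg.Agent.H933.O10.HeartTr

/-!
# `L₂(11)` in `Ω₁₀^±(3)` (helper933)

* `l2_three` : `L₂(11)` is no residual core in `Ω₁₀^±(3)` (it is contained in `A₁₂`).
-/

set_option autoImplicit false
set_option linter.unusedSectionVars false
set_option maxRecDepth 100000

namespace Cfsg.Agent.H933.L11

open Matrix Module Cfsg Cfsg.Geo Cfsg.Agent.H464.Sl2 Cfsg.Agent.H915.LD Cfsg.Agent.H933.O10
open Cfsg.Agent.ClassicalGeometry.AutPSL.Auto (cj)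

universe u v

local notation "G11" => SpecialLinearGroup (Fin 2) (ZMod 11)
local notation "L11" => OnePoint (ZMod 11)

/-- number of fixed points on the projective line -/
def N12 (s : ZMod 11) : ℕ := if s = 2 ∨ s = 9 then 1 else if s = 3 ∨ s = 4 ∨ s = 7 ∨ s = 8 then 2 else 0

def cnt (a b c d : ZMod 11) : ℕ := (if c = 0 then 1 else 0) +
  (Finset.univ.filter fun k : ZMod 11 => c * k ^ 2 + (d - a) * k - b = 0).card

theorem cnt_eq : ∀ a b c d : ZMod 11, a * d - b * c = 1 → (b = 0 → c = 0 → a ≠ d) → cnt a b c d = N12 (a + d) := by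
  decide +kernel

/-- the action on the projective line -/
def act (A : GL (Fin 2) (ZMod 11)) : Equiv.Perm L11 := MulAction.toPermHom (GL (Fin 2) (ZMod 11)) L11 A

theorem act_apply (A : GL (Fin 2) (ZMod 11)) (x : L11) : act A x = A • x := rfl

instance : MulAction G11 L11 :=
  MulAction.compHom L11 (Matrix.SpecialLinearGroup.toGL (n := Fin 2) (R := ZMod 11))

theorem smul_def (g : G11) (x : L11) : g • x = (Matrix.SpecialLinearGroup.toGL g : GL (Fin 2) (ZMod 11)) • x := rfl

theorem toGL_apply (g : G11) (i j : Fin 2) :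
    (Matrix.SpecialLinearGroup.toGL g : GL (Fin 2) (ZMod 11)) i j = g.1 i j := rfl

instance : DecidableEq L11 := inferInstanceAs (DecidableEq (Option (ZMod 11)))

theorem infty_fixed_iff (g : G11) : g • (OnePoint.infty : L11) = OnePoint.infty ↔ g.1 1 0 = 0 := by
  rw [smul_def, OnePoint.smul_infty_eq_self_iff]
  rfl

theorem smul_infty (g : G11) (hg : g.1 1 0 ≠ 0) :
    g • (OnePoint.infty : L11) = ((g.1 0 0 / g.1 1 0 : ZMod 11) : L11) :=
  (OnePoint.smul_infty_eq_ite _).trans (if_neg hg)

theorem smul_coe_of_eq (g : G11) (k : ZMod 11) (hg : g.1 1 0 * k + g.1 1 1 = 0) :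
    g • (k : L11) = OnePoint.infty :=
  OnePoint.smul_some_eq_ite.trans (if_pos hg)

theorem smul_coe_of_ne (g : G11) (k : ZMod 11) (hg : g.1 1 0 * k + g.1 1 1 ≠ 0) :
    g • (k : L11) = (((g.1 0 0 * k + g.1 0 1) / (g.1 1 0 * k + g.1 1 1) : ZMod 11) : L11) :=
  OnePoint.smul_some_eq_ite.trans (if_neg hg)

theorem coe_fixed_iff (g : G11) (k : ZMod 11) : g • (k : L11) = (k : L11) ↔
    g.1 1 0 * k ^ 2 + (g.1 1 1 - g.1 0 0) * k - g.1 0 1 = 0 := by
  have hd := det_eq g
  by_cases h : g.1 1 0 * k + g.1 1 1 = 0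
  · rw [smul_coe_of_eq g k h]
    refine ⟨fun h1 => (OnePoint.infty_ne_coe _ h1).elim, fun h1 => ?_⟩
    exfalso
    have h2 : g.1 0 0 * k + g.1 0 1 = 0 := by linear_combination k * h - h1
    have h3 : (1 : ZMod 11) = 0 := by
      linear_combination -hd + g.1 0 0 * h - g.1 1 0 * h2
    exact absurd h3 (by decide)
  · rw [smul_coe_of_ne g k h, OnePoint.coe_eq_coe, div_eq_iff h]
    constructor
    · intro h1
      linear_combination -h1
    · intro h1
      linear_combination -h1

theorem fix_card (g : G11) (hg : g.1 0 1 = 0 → g.1 1 0 = 0 → g.1 0 0 ≠ g.1 1 1) :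
    (Finset.univ.filter fun x : L11 => g • x = x).card = N12 (g.1 0 0 + g.1 1 1) := by
  rw [← cnt_eq _ _ _ _ (det_eq g) hg, cnt, Finset.card_filter, Finset.card_filter]
  have h1 : ∀ f : L11 → ℕ, ∑ x : L11, f x = f OnePoint.infty + ∑ k : ZMod 11, f (k : L11) := by
    intro f
    exact Fintype.sum_option f
  rw [h1]
  congr 1
  · simp only [infty_fixed_iff]
  · refine Finset.sum_congr rfl fun k _ => ?_
    simp only [coe_fixed_iff]

theorem t_smul (x : L11) : (t (-1 : (ZMod 11)ˣ)) • x = x := by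
  cases x with
  | infty => rw [infty_fixed_iff]; rfl
  | coe k =>
    rw [coe_fixed_iff]
    change (0 : ZMod 11) * k ^ 2 + (((-1 : (ZMod 11)ˣ)⁻¹ : (ZMod 11)ˣ) - ((-1 : (ZMod 11)ˣ) : ZMod 11)) * k - 0 = 0
    rw [show ((-1 : (ZMod 11)ˣ)⁻¹) = -1 by decide]
    ring

theorem card_L11 : Fintype.card L11 = 12 := by
  change Fintype.card (Option (ZMod 11)) = 12
  rw [Fintype.card_option, ZMod.card]

/-- a matrix -/
def mk4 (a b c d : ZMod 11) (h : a * d - b * c = 1) : G11 := ⟨!![a, b; c, d], by rw [Matrix.det_fin_two_of, h]⟩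

/-- two-transitivity from the base point -/
theorem trans_zero (x y : L11) (hxy : x ≠ y) : ∃ g : G11, g • (OnePoint.infty : L11) = x ∧ g • ((0 : ZMod 11) : L11) = y := by
  have key : ∀ (g : G11) (s r : L11), g • (OnePoint.infty : L11) = s → g • ((0 : ZMod 11) : L11) = r →
      ∃ g : G11, g • (OnePoint.infty : L11) = s ∧ g • ((0 : ZMod 11) : L11) = r := fun g _ _ h1 h2 => ⟨g, h1, h2⟩
  cases x with
  | infty =>
    cases y with
    | infty => exact absurd rfl hxy
    | coe b =>
      refine key (mk4 1 b 0 1 (by ring)) _ _ ((infty_fixed_iff _).2 rfl) ?_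
      rw [smul_coe_of_ne _ _ (by change (0 : ZMod 11) * 0 + 1 ≠ 0; decide)]
      congr 1
      change ((1 : ZMod 11) * 0 + b) / (0 * 0 + 1) = b
      ring
  | coe a =>
    cases y with
    | infty =>
      refine key (mk4 a (-1) 1 0 (by ring)) _ _ ?_ ?_
      · rw [smul_infty _ (by change (1 : ZMod 11) ≠ 0; decide)]
        congr 1
        change a / 1 = a
        rw [div_one]
      · exact smul_coe_of_eq _ _ (by change (1 : ZMod 11) * 0 + 0 = 0; ring)
    | coe b =>
      have hab : a - b ≠ 0 := fun h => hxy (by rw [sub_eq_zero.1 h])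
      refine key (mk4 (a * (a - b)⁻¹) b (a - b)⁻¹ 1 (by rw [mul_one, ← sub_mul, mul_inv_cancel₀ hab])) _ _ ?_ ?_
      · rw [smul_infty _ (inv_ne_zero hab)]
        congr 1
        change a * (a - b)⁻¹ / (a - b)⁻¹ = a
        rw [mul_div_assoc, div_self (inv_ne_zero hab), mul_one]
      · rw [smul_coe_of_ne _ _ (by change (a - b)⁻¹ * 0 + 1 ≠ 0; rw [mul_zero, zero_add]; exact one_ne_zero)]
        congr 1
        change (a * (a - b)⁻¹ * 0 + b) / ((a - b)⁻¹ * 0 + 1) = b
        rw [mul_zero, mul_zero, zero_add, zero_add, div_one]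

theorem trans_two (x y x' y' : L11) (hxy : x ≠ y) (hxy' : x' ≠ y') : ∃ g : G11, g • x = x' ∧ g • y = y' := by
  obtain ⟨a, ha, ha'⟩ := trans_zero x y hxy
  obtain ⟨b, hb, hb'⟩ := trans_zero x' y' hxy'
  refine ⟨b * a⁻¹, ?_, ?_⟩
  · rw [mul_smul, ← ha, inv_smul_smul, hb]
  · rw [mul_smul, ← ha', inv_smul_smul, hb']

/-- the size of `L₂(11)` -/
theorem not_a12 (e : ProjectiveSpecialLinearGroup (Fin 2) (ZMod 11) ≃* alternatingGroup (Fin 12)) : False := by
  have h1 : Nat.card (ProjectiveSpecialLinearGroup (Fin 2) (ZMod 11)) ≤ Nat.card G11 :=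
    Nat.card_le_card_of_surjective _ (QuotientGroup.mk_surjective (s := Subgroup.center G11))
  have h2 : Nat.card G11 ≤ Nat.card (Matrix (Fin 2) (Fin 2) (ZMod 11)) :=
    Nat.card_le_card_of_injective (fun g : G11 => g.1) Subtype.val_injective
  have h3 : Nat.card (Matrix (Fin 2) (Fin 2) (ZMod 11)) = 14641 := by
    change Nat.card (Fin 2 → Fin 2 → ZMod 11) = 14641
    rw [Nat.card_eq_fintype_card]
    simp
  have h4 : Nat.card (alternatingGroup (Fin 12)) = 239500800 := by
    rw [nat_card_alternatingGroup]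
    simp
    decide
  rw [Nat.card_congr e.toEquiv, h4] at h1
  omega

variable {F : Type u} [Field F] {Q : (Fin 10 → F) → F} {H P : Subgroup (GL (Fin 10) F)}

/-- **`L₂(11)` in `Ω₁₀^±(3)`.** -/
theorem l2_three [Fintype F] (h : Cx 3 Q H P) (e : Soc P ≃* ProjectiveSpecialLinearGroup (Fin 2) (ZMod 11)) : False := by
  have := h.char
  have hC := h.core
  obtain ⟨hF, ρ, r⟩ := exists_rp h (by norm_num) e
  obtain ⟨ζ, -, z6, z1, -, hz⟩ := r.zeta h (by norm_num)
  have hc3 : CharP (AlgebraicClosure F) 3 :=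
    charP_of_injective_algebraMap (algebraMap F (AlgebraicClosure F)).injective 3
  have h3 : (3 : F) = 0 := by exact_mod_cast CharP.cast_eq_zero F 3
  have h3' : (3 : AlgebraicClosure F) = 0 := by exact_mod_cast CharP.cast_eq_zero (AlgebraicClosure F) 3
  have z : ζ = 1 := by
    have h1 : (ζ - 1) ^ 3 * (ζ + 1) ^ 3 = 0 := by
      linear_combination z6 - (ζ ^ 4 - ζ ^ 2) * h3'
    rcases mul_eq_zero.1 h1 with h2 | h2
    · exact sub_eq_zero.1 (pow_eq_zero_iff (by norm_num) |>.1 h2)
    · exact absurd (eq_neg_of_add_eq_zero_left (pow_eq_zero_iff (by norm_num) |>.1 h2)) z1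
  -- the traces
  have htr : ∀ g : G11, tr (ρ g) = ((Finset.univ.filter fun x : L11 => g • x = x).card : F) - 2 := by
    have hcen : ∀ g : G11, ρ g = 1 → (∀ x : L11, g • x = x) →
        tr (ρ g) = ((Finset.univ.filter fun x : L11 => g • x = x).card : F) - 2 := by
      intro g h1 h2
      rw [h1, Finset.filter_true_of_mem fun x _ => h2 x, Finset.card_univ, card_L11, tr, Units.val_one, Matrix.trace_one,
        Fintype.card_fin]
      norm_num
    intro g
    rcases cases_nc g with rfl | rfl | ⟨hg, hg'⟩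
    · exact hcen _ (map_one _) fun x => one_smul _ x
    · exact hcen _ (r.map_eq_one.2 (Or.inr rfl)) t_smul
    · rw [fix_card g hg']
      obtain ⟨k1, k2, k3, k4, k5⟩ := hz g hg
      have key : algebraMap F (AlgebraicClosure F) (tr (ρ g)) = -(1 + 1) → tr (ρ g) = ((0 : ℕ) : F) - 2 := by
        intro h5
        apply (algebraMap F (AlgebraicClosure F)).injective
        rw [h5, Nat.cast_zero, zero_sub, map_neg, map_ofNat]
        norm_num
      rw [z] at k3 k4 k5
      simp only [one_pow, inv_one] at k3 k4 k5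
      have hs := all11 (g.1 0 0 + g.1 1 1)
      generalize g.1 0 0 + g.1 1 1 = s at *
      rcases hs with rfl | rfl | rfl | rfl | rfl | rfl | rfl | rfl | rfl | rfl | rfl
      · rw [show N12 0 = 0 by decide]; exact key (k3 rfl)
      · rw [show N12 1 = 0 by decide]; exact key (k4 (Or.inl rfl))
      · rw [show N12 2 = 1 by decide, k1 (Or.inl rfl)]; norm_num
      · rw [show N12 3 = 2 by decide, k2 (by decide)]; norm_num
      · rw [show N12 4 = 2 by decide, k2 (by decide)]; norm_num
      · rw [show N12 5 = 0 by decide]; exact key (k5 (Or.inl rfl))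
      · rw [show N12 6 = 0 by decide]; exact key (k5 (Or.inr rfl))
      · rw [show N12 7 = 2 by decide, k2 (by decide)]; norm_num
      · rw [show N12 8 = 2 by decide, k2 (by decide)]; norm_num
      · rw [show N12 9 = 1 by decide, k1 (Or.inr rfl)]; norm_num
      · rw [show N12 10 = 0 by decide]; exact key (k4 (Or.inr rfl))
  obtain ⟨S, W, hSρ, hSW, hadd, hne⟩ := HeartTr.exists_heart (ρ := ρ) (by rw [r.range]; exact hC.absIrred) (X := L11)
    (by rw [card_L11, Fintype.card_fin]) (by rw [card_L11]; push_cast; linear_combination 4 * h3) htr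
  have hgW : ∀ (g : G11) (x y : L11), (ρ g : Matrix (Fin 10) (Fin 10) F) *ᵥ W x y = W (g • x) (g • y) := by
    intro g x y
    rw [← hSρ, hSW]
    rfl
  let e12 : L11 ≃ Fin 12 := Fintype.equivFinOfCardEq card_L11
  have hne' : ∀ i j : Fin 12, i ≠ j → e12.symm i ≠ e12.symm j := fun i j hij h1 => hij (e12.symm.injective h1)
  have h12 := h.twelve (Or.inr h3) (W := fun i j => W (e12.symm i) (e12.symm j)) (fun i j k => hadd _ _ _)
    (by
      obtain ⟨x, y, hxy⟩ := hne
      exact ⟨e12 x, e12 y, by simpa using hxy⟩)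
    (by
      intro g hg
      obtain ⟨g, rfl⟩ := r.exists_eq hg
      refine ⟨(Equiv.permCongrHom e12) (MulAction.toPermHom G11 L11 g), fun i j => ?_⟩
      rw [hgW]
      have h1 : ∀ i, e12.symm ((Equiv.permCongrHom e12) (MulAction.toPermHom G11 L11 g) i) = g • e12.symm i := by
        intro i
        change e12.symm (e12 (g • e12.symm i)) = _
        rw [e12.symm_apply_apply]
      rw [h1, h1])
    (by
      intro i j k l hij hkl
      obtain ⟨g, h1, h2⟩ := trans_two _ _ _ _ (hne' i j hij) (hne' k l hkl)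
      exact ⟨ρ g, r.mem g, by rw [hgW, h1, h2]⟩)
    (by
      intro x hx i j hij
      obtain ⟨A, hA⟩ := r.exists_cj h.hc.normal hx
      -- `x⁻¹ S(A)` commutes with `P`
      have hS : ∀ g : G11, S (act A) * ρ g = ρ (cj A g) * S (act A) := by
        intro g
        rw [← hSρ, ← hSρ, ← map_mul, ← map_mul]
        congr 1
        ext z
        change A • ((Matrix.SpecialLinearGroup.toGL g : GL (Fin 2) (ZMod 11)) • z) =
          (Matrix.SpecialLinearGroup.toGL (cj A g) : GL (Fin 2) (ZMod 11)) • (A • z)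
        rw [← mul_smul, ← mul_smul]
        congr 1
        apply Units.ext
        change (A : Matrix (Fin 2) (Fin 2) (ZMod 11)) * g.1 = (A : Matrix (Fin 2) (Fin 2) (ZMod 11)) * g.1 *
          ((A⁻¹ : GL (Fin 2) (ZMod 11)) : Matrix (Fin 2) (Fin 2) (ZMod 11)) * (A : Matrix (Fin 2) (Fin 2) (ZMod 11))
        rw [Matrix.mul_assoc, ← Units.val_mul, inv_mul_cancel, Units.val_one, Matrix.mul_one]
      obtain ⟨c, hc⟩ := HeartTr.schur hC.absIrred (T := ((x⁻¹ * S (act A) : GL (Fin 10) F) : Matrix (Fin 10) (Fin 10) F))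
        (by
          intro g hg
          obtain ⟨g, rfl⟩ := r.exists_eq hg
          rw [← Units.val_mul, ← Units.val_mul]
          congr 1
          rw [mul_assoc, hS, ← hA]
          group)
      have hc2 : c = 1 ∨ c = -1 := by
        have hc0 : c ≠ 0 := by
          rintro rfl
          rw [zero_smul] at hc
          have h1 : (((x⁻¹ * S (act A))⁻¹ * (x⁻¹ * S (act A)) : GL (Fin 10) F) : Matrix (Fin 10) (Fin 10) F) = 0 := by
            rw [Units.val_mul, hc, Matrix.mul_zero]
          rw [inv_mul_cancel, Units.val_one] at h1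
          exact one_ne_zero h1
        have h1 : c ^ 2 = 1 := by
          have := FiniteField.pow_card_sub_one_eq_one c hc0
          rwa [hF] at this
        exact mul_self_eq_one_iff.1 ((sq c).symm.trans h1)
      have h5 : ∀ v : Fin 10 → F, (S (act A) : Matrix (Fin 10) (Fin 10) F) *ᵥ v = c • ((x : Matrix (Fin 10) (Fin 10) F) *ᵥ v) := by
        intro v
        have h6 : (x : Matrix (Fin 10) (Fin 10) F) * ((x⁻¹ * S (act A) : GL (Fin 10) F) : Matrix (Fin 10) (Fin 10) F) =
            (S (act A) : Matrix (Fin 10) (Fin 10) F) := by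
          rw [← Units.val_mul]
          congr 1
          group
        rw [← h6, hc, Matrix.mul_smul, Matrix.mul_one, Matrix.smul_mulVec]
      have h6 := hSW (act A) (e12.symm i) (e12.symm j)
      rw [h5] at h6
      have hneg : ∀ x y : L11, -W x y = W y x := by
        intro x y
        have h7 := hadd x y x
        have h8 := hadd x x x
        rw [add_eq_left] at h8
        rw [h8] at h7
        exact neg_eq_of_add_eq_zero_right h7
      have hAne : act A (e12.symm i) ≠ act A (e12.symm j) := fun h7 => hne' i j hij ((act A).injective h7)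
      rcases hc2 with rfl | rfl
      · rw [one_smul] at h6
        refine ⟨e12 (act A (e12.symm i)), e12 (act A (e12.symm j)), fun h7 => hAne (e12.injective h7), ?_⟩
        rw [h6, e12.symm_apply_apply, e12.symm_apply_apply]
      · refine ⟨e12 (act A (e12.symm j)), e12 (act A (e12.symm i)), fun h7 => hAne (e12.injective h7).symm, ?_⟩
        rw [e12.symm_apply_apply, e12.symm_apply_apply, ← hneg (act A (e12.symm i)), ← h6, neg_one_smul, neg_neg])
  obtain ⟨f⟩ := h12
  exact not_a12 (e.symm.trans f)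

end Cfsg.Agent.H933.L11
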